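import Cfsg.Agent.H152.QA.PTools
import Cfsg.Agent.H973.QA.Rank
import Cfsg.Agent.H306.QA.Chain

/-!
# S4979, layer (A), A-T9: the Parseval criterion (helper152)

`x` of order `p`, `χ` an irreducible constituent of degree `d` of the complex representation of `V`, `k` the codimension of the
fixed space of `x`: `p (d - k)² + p k ≤ p ∑ mᵢ² = ∑ |χ(xⁱ)|² ≤ d² + (p - 1) |C_S(x)|`.
-/

set_option autoImplicit false
set_option linter.style.haveILetI false
set_option linter.unusedSectionVars false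

open Cfsg Module

namespace Cfsg.Agent.H152.QA

open Cfsg.Agent.H80.Fpf Cfsg.Agent.H245.QA Cfsg.Agent.H963.QA Cfsg.Agent.H973.QA

section rep

variable {G : Type} [Group G] [Finite G] {d : ℕ} (ρ : Representation ℂ G (Fin d → ℂ))

/-- the trace is the sum over the weights -/
theorem trace_eq_sum_wt {X : Subgroup G} [Fintype X] (hE : ∀ a ∈ X, ∀ b ∈ X, a * b = b * a)
    [Fintype (X →* ℂˣ)] (x : X) :
    LinearMap.trace ℂ (Fin d → ℂ) (ρ x) = ∑ lam : X →* ℂˣ, (((lam x : ℂˣ) : ℂ)) * (finrank ℂ (wt ρ X lam) : ℂ) := by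
  classical
  let _ : CommGroup X := { (inferInstance : Group X) with
    mul_comm := fun a b => Subtype.ext (hE a a.2 b b.2) }
  have h1 : (Fintype.card X : ℂ) * ∑ lam : X →* ℂˣ, (((lam x : ℂˣ) : ℂ)) * (finrank ℂ (wt ρ X lam) : ℂ) =
      (Fintype.card X : ℂ) * LinearMap.trace ℂ (Fin d → ℂ) (ρ x) := by
    rw [Finset.mul_sum]
    calc ∑ lam : X →* ℂˣ, (Fintype.card X : ℂ) * ((((lam x : ℂˣ) : ℂ)) * (finrank ℂ (wt ρ X lam) : ℂ))
        = ∑ lam : X →* ℂˣ, ∑ y : X, (((lam (y * x⁻¹))⁻¹ : ℂˣ) : ℂ) * LinearMap.trace ℂ (Fin d → ℂ) (ρ y) := by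
          refine Finset.sum_congr rfl fun lam _ => ?_
          rw [mul_left_comm, ← sum_trace_wt ρ X lam, Finset.mul_sum]
          refine Finset.sum_congr rfl fun y _ => ?_
          rw [map_mul, map_inv, mul_inv, inv_inv, Units.val_mul]
          ring
      _ = ∑ y : X, (∑ lam : X →* ℂˣ, (((lam (y * x⁻¹))⁻¹ : ℂˣ) : ℂ)) * LinearMap.trace ℂ (Fin d → ℂ) (ρ y) := by
          rw [Finset.sum_comm]
          refine Finset.sum_congr rfl fun y _ => ?_
          rw [Finset.sum_mul]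
      _ = ∑ y : X, (if y * x⁻¹ = 1 then (Fintype.card X : ℂ) else 0) * LinearMap.trace ℂ (Fin d → ℂ) (ρ y) :=
          Finset.sum_congr rfl fun y _ => by rw [sum_dual]
      _ = (Fintype.card X : ℂ) * LinearMap.trace ℂ (Fin d → ℂ) (ρ x) := by
          rw [Finset.sum_eq_single x]
          · rw [if_pos (mul_inv_cancel x)]
          · intro y _ hy
            rw [if_neg (fun h => hy (mul_inv_eq_one.1 h)), zero_mul]
          · intro h
            exact absurd (Finset.mem_univ _) h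
  exact (mul_left_cancel₀ (card_ne X) h1).symm

/-- **Parseval** -/
theorem parseval {X : Subgroup G} [Fintype X] (hE : ∀ a ∈ X, ∀ b ∈ X, a * b = b * a) [Fintype (X →* ℂˣ)] :
    ∑ x : X, ‖LinearMap.trace ℂ (Fin d → ℂ) (ρ x)‖ ^ 2 =
      (Fintype.card X : ℝ) * ∑ lam : X →* ℂˣ, (finrank ℂ (wt ρ X lam) : ℝ) ^ 2 := by
  have h1 : ∑ x : X, LinearMap.trace ℂ (Fin d → ℂ) (ρ x) * LinearMap.trace ℂ (Fin d → ℂ) (ρ ((x : G)⁻¹)) =
      (Fintype.card X : ℂ) * ∑ lam : X →* ℂˣ, (finrank ℂ (wt ρ X lam) : ℂ) ^ 2 := by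
    calc ∑ x : X, LinearMap.trace ℂ (Fin d → ℂ) (ρ x) * LinearMap.trace ℂ (Fin d → ℂ) (ρ ((x : G)⁻¹))
        = ∑ x : X, ∑ lam : X →* ℂˣ, (finrank ℂ (wt ρ X lam) : ℂ) *
            ((((lam x : ℂˣ) : ℂ)) * LinearMap.trace ℂ (Fin d → ℂ) (ρ ((x : G)⁻¹))) := by
          refine Finset.sum_congr rfl fun x _ => ?_
          rw [trace_eq_sum_wt ρ hE x, Finset.sum_mul]
          refine Finset.sum_congr rfl fun lam _ => ?_
          ring
      _ = ∑ lam : X →* ℂˣ, (finrank ℂ (wt ρ X lam) : ℂ) *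
            ∑ x : X, (((lam x : ℂˣ) : ℂ)) * LinearMap.trace ℂ (Fin d → ℂ) (ρ ((x : G)⁻¹)) := by
          rw [Finset.sum_comm]
          refine Finset.sum_congr rfl fun lam _ => ?_
          rw [Finset.mul_sum]
      _ = ∑ lam : X →* ℂˣ, (finrank ℂ (wt ρ X lam) : ℂ) * ((Fintype.card X : ℂ) * (finrank ℂ (wt ρ X lam) : ℂ)) := by
          refine Finset.sum_congr rfl fun lam _ => ?_
          congr 1
          rw [← sum_trace_wt ρ X lam]
          refine Fintype.sum_equiv (Equiv.inv X) _ _ fun x => ?_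
          rw [Equiv.inv_apply, map_inv lam, inv_inv, Subgroup.coe_inv]
      _ = _ := by
          rw [Finset.mul_sum]
          refine Finset.sum_congr rfl fun lam _ => ?_
          ring
  have h2 : ∀ x : X, LinearMap.trace ℂ (Fin d → ℂ) (ρ x) * LinearMap.trace ℂ (Fin d → ℂ) (ρ ((x : G)⁻¹)) =
      ((‖LinearMap.trace ℂ (Fin d → ℂ) (ρ x)‖ ^ 2 : ℝ) : ℂ) := by
    intro x
    have h3 := Cfsg.Agent.S0191.character_inv ρ (x : G)
    have h4 : LinearMap.trace ℂ (Fin d → ℂ) (ρ ((x : G)⁻¹)) = (starRingEnd ℂ) (LinearMap.trace ℂ (Fin d → ℂ) (ρ x)) := h3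
    rw [h4, Complex.mul_conj, Complex.normSq_eq_norm_sq]
  rw [Finset.sum_congr rfl (fun x _ => h2 x)] at h1
  have h3 : ((∑ x : X, ‖LinearMap.trace ℂ (Fin d → ℂ) (ρ x)‖ ^ 2 : ℝ) : ℂ) =
      (((Fintype.card X : ℝ) * ∑ lam : X →* ℂˣ, (finrank ℂ (wt ρ X lam) : ℝ) ^ 2 : ℝ) : ℂ) := by
    push_cast
    push_cast at h1
    exact h1
  exact Complex.ofReal_injective h3

end rep

section P
variable {p q : ℕ} {G V S : Type} [Group G] [Finite G] [AddCommGroup V] [Finite V] [DistribMulAction G V]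
  [Group S] [Finite S] [IsSimpleGroup S] {ψ : G →* S}

/-- **Parseval criterion** -/
theorem PSit.parseval (h : PSit p q G V) (hψ : IsCover ψ) {B e C : ℕ} (hB : Cfsg.Agent.H122.MinDeg G B) (x : S)
    (hx : orderOf x = p) (hC : Nat.card (Subgroup.centralizer ({x} : Set S)) ≤ C) (he : e ∣ p - 1)
    (hrat : ∀ k : ℕ, k ^ e % p = 1 → IsConj x (x ^ k)) :
    ∃ d k : ℕ, B ≤ d ∧ 0 < k ∧ e ∣ k ∧ k ≤ d ∧ p * (d - k) ^ 2 + p * k ≤ d ^ 2 + (p - 1) * C ∧
      q ^ k ≤ (Subgroup.normalizer ((Subgroup.zpowers x : Subgroup S) : Set S)).index := by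
  classical
  haveI : Fact p.Prime := ⟨h.hp⟩
  have hcX : Nat.card (Subgroup.zpowers x) = p := by rw [Nat.card_zpowers, hx]
  obtain ⟨X, hXp, hcardX', hXm, hinj, hab, hexp, hconj, hidx⟩ := H973.QA.exists_lift h hψ (e := e) (Subgroup.zpowers x)
    (IsPGroup.of_card (n := 1) (by rw [hcX, pow_one]))
    (by
      rintro _ ⟨a, rfl⟩ _ ⟨b, rfl⟩
      exact ((Commute.refl x).zpow_zpow a b).eq)
    (by
      rintro _ ⟨a, rfl⟩
      show (x ^ a) ^ p = 1
      rw [← zpow_natCast, ← zpow_mul, mul_comm, zpow_mul, zpow_natCast, ← hx, pow_orderOf_eq_one, one_zpow])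
    (isConj_of_mem hrat)
  have hcardX : Nat.card X = p := by rw [hcardX', hcX]
  obtain ⟨y, hyX, hy1⟩ : ∃ y ∈ X, y ≠ 1 := by
    by_contra hcon
    push Not at hcon
    have h1 : X = ⊥ := by
      rw [eq_bot_iff]
      intro a ha
      exact Subgroup.mem_bot.2 (hcon a ha)
    rw [h1, Subgroup.card_bot] at hcardX
    exact h.hp.one_lt.ne hcardX
  obtain ⟨D, ρ, hD, hρ⟩ := h.exists_repR
  have hne : ∃ g, ρ g ≠ 1 := by
    obtain ⟨g, v, hgv⟩ := h.exists_ne
    exact ⟨g, fun h2 => hgv (by rw [faithful_of_fix h hD hρ g h2, one_smul])⟩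
  obtain ⟨d, τ, hτ, hτ1, h5⟩ := exists_irr_ne_fix _ _ ρ rfl hne
  have hBd : B ≤ d := by
    have h6 := hB (Fin d → ℂ) τ hτ1
    rwa [finrank_fin_fun] at h6
  obtain ⟨k0, hk0⟩ := exists_ord h.hp he
  have he0 : 0 < e := Nat.pos_of_dvd_of_pos he (by have := h.hp.one_lt; omega)
  obtain ⟨k, hk⟩ := dvd_codim τ h.hp he0 hk0 hab hexp (fun a ha i => trace_conj τ (hconj a ha _ (by
      have h2 := (hk0 (i * e) 0).2 ((Nat.modEq_zero_iff_dvd).2 (dvd_mul_left e i))
      rw [pow_mul, pow_zero] at h2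
      rw [h2, Nat.mod_eq_of_lt h.hp.one_lt])))
  rw [finrank_fin_fun] at hk
  -- `τ` is nontrivial on `X`
  have hker : τ y ≠ 1 := by
    intro h1
    have h2 : ((MonoidHom.ker τ).map ψ).Normal := Subgroup.Normal.map inferInstance ψ hψ.surj
    rcases h2.eq_bot_or_eq_top with h3 | h3
    · have h4 : ψ y ∈ (MonoidHom.ker τ).map ψ := ⟨y, h1, rfl⟩
      rw [h3, Subgroup.mem_bot] at h4
      exact hy1 (hinj y hyX h4)
    · have h4 := H306.QA.eq_top_of_map hψ _ h3
      obtain ⟨g, hg⟩ := hτ1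
      apply hg
      have h5 : g ∈ MonoidHom.ker τ := by rw [h4]; trivial
      exact h5
  have hfix : finrank ℂ (fx τ X) < d := by
    have h0 : finrank ℂ (fx τ X) ≤ d := by
      have := Submodule.finrank_le (fx τ X)
      rwa [finrank_fin_fun] at this
    refine lt_of_le_of_ne h0 fun heq => hker ?_
    have h1 : fx τ X = ⊤ := Submodule.eq_top_of_finrank_eq (by rw [heq, finrank_fin_fun])
    refine LinearMap.ext fun v => ?_
    have h2 : v ∈ fx τ X := by rw [h1]; trivial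
    exact h2 y hyX
  refine ⟨d, e * k, hBd, ?_, dvd_mul_right e k, by omega, ?_, ?_⟩
  · rcases Nat.eq_zero_or_pos (e * k) with h1 | h1
    · omega
    · exact h1
  · -- Parseval
    letI : Fintype X := Fintype.ofFinite X
    haveI := finite_chars (X := X) hab
    letI : Fintype (X →* ℂˣ) := Fintype.ofFinite _
    have h1 := Cfsg.Agent.H152.QA.parseval τ hab (X := X)
    have h2 : ∑ a : X, ‖LinearMap.trace ℂ (Fin d → ℂ) (τ a)‖ ^ 2 ≤ (d : ℝ) ^ 2 + ((p - 1 : ℕ) : ℝ) * C := by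
      rw [← Finset.add_sum_erase Finset.univ _ (Finset.mem_univ (1 : X))]
      refine add_le_add (le_of_eq ?_) ?_
      · rw [OneMemClass.coe_one, map_one, LinearMap.trace_one, finrank_fin_fun, Complex.norm_natCast]
      · have h3 : ∀ a ∈ (Finset.univ : Finset X).erase 1, ‖LinearMap.trace ℂ (Fin d → ℂ) (τ a)‖ ^ 2 ≤ (C : ℝ) := by
          intro a ha
          have ha1 : (a : G) ≠ 1 := fun h4 => (Finset.mem_erase.1 ha).1 (Subtype.ext h4)
          have h4 := norm_sq_le hψ τ hτ (a : G)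
          have h5 : Subgroup.centralizer ({ψ a} : Set S) = Subgroup.centralizer ({x} : Set S) := by
            have h6 : Subgroup.zpowers (ψ a) = Subgroup.zpowers x := by
              apply Subgroup.eq_of_le_of_card_ge
              · rw [Subgroup.zpowers_le]
                exact hXm a a.2
              · rw [Nat.card_zpowers, hx, Nat.card_zpowers]
                have h7 : ψ a ∈ Subgroup.zpowers x := hXm a a.2
                have h8 := Subgroup.orderOf_dvd_natCard _ h7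
                rw [Nat.card_zpowers, hx] at h8
                rcases (Nat.dvd_prime h.hp).1 h8 with h9 | h9
                · exact absurd (hinj a a.2 (orderOf_eq_one_iff.1 h9)) ha1
                · exact h9.ge
            rw [← Subgroup.centralizer_closure, ← Subgroup.centralizer_closure ({x} : Set S),
              ← Subgroup.zpowers_eq_closure, ← Subgroup.zpowers_eq_closure, h6]
          rw [h5] at h4
          exact h4.trans (by exact_mod_cast hC)
        refine (Finset.sum_le_sum h3).trans ?_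
        rw [Finset.sum_const, Finset.card_erase_of_mem (Finset.mem_univ _), Finset.card_univ, nsmul_eq_mul,
          ← Nat.card_eq_fintype_card, hcardX]
    rw [h1, ← Nat.card_eq_fintype_card, hcardX] at h2
    have h3 : p * ∑ lam : X →* ℂˣ, (finrank ℂ (wt τ X lam)) ^ 2 ≤ d ^ 2 + (p - 1) * C := by exact_mod_cast h2
    refine le_trans ?_ h3
    have h4 : (d - e * k) ^ 2 + e * k ≤ ∑ lam : X →* ℂˣ, (finrank ℂ (wt τ X lam)) ^ 2 := by
      rw [← Finset.add_sum_erase Finset.univ _ (Finset.mem_univ (1 : X →* ℂˣ)), wt_one]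
      have h5 : finrank ℂ (fx τ X) = d - e * k := by omega
      rw [h5]
      refine Nat.add_le_add_left ?_ _
      have h6 := sum_wt τ hab (X := X)
      rw [← Finset.add_sum_erase Finset.univ _ (Finset.mem_univ (1 : X →* ℂˣ)), wt_one, h5, finrank_fin_fun] at h6
      have h7 : e * k = ∑ lam ∈ (Finset.univ : Finset (X →* ℂˣ)).erase 1, finrank ℂ (wt τ X lam) := by omega
      rw [h7]
      apply Finset.sum_le_sum
      intro lam _
      rw [pow_two]
      exact Nat.le_mul_self _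
    calc p * (d - e * k) ^ 2 + p * (e * k) = p * ((d - e * k) ^ 2 + e * k) := by ring
      _ ≤ _ := Nat.mul_le_mul_left _ h4
  · have h6 := h5 X
    rw [finrank_fin_fun] at h6
    have h8 := h.card_le X hXp
    rw [hD, hρ, hidx] at h8
    have hfd : finrank ℂ (fixR ρ X) ≤ D := by
      have := Submodule.finrank_le (fixR ρ X)
      rwa [finrank_fin_fun] at this
    have h10 : q ^ D = q ^ (D - finrank ℂ (fixR ρ X)) * q ^ finrank ℂ (fixR ρ X) := by
      rw [← pow_add]; congr 1; omega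
    rw [h10] at h8
    have h9 := Nat.le_of_mul_le_mul_right h8 (Nat.pow_pos h.hq.pos)
    refine le_trans (Nat.pow_le_pow_right h.hq.pos ?_) h9
    have h11 : finrank ℂ (fx τ X) = finrank ℂ (fixR τ X) := rfl
    omega

end P

end Cfsg.Agent.H152.QA
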